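import Mathlib

/-!
# A finite search excluding Sylow data for simple groups of order properly dividing 175560

For a prime `p` dividing the order `o` exactly once, the datum `(n, c)` records the number of
Sylow subgroups and the index of the Sylow subgroup in its centralizer.
-/

namespace Cfsg.Agent.H80.J1Order

/-- Small divisor list. -/
def smallDivs (n : ℕ) : List ℕ := (List.range (n + 1)).filter fun d => d != 0 && n % d == 0

/-- All products of a member of each list. -/
def prods : List (List ℕ) → List ℕ
  | [] => [1]
  | L :: Ls => L.flatMap fun a => (prods Ls).map fun b => a * b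

/-- The divisors of `175560 = 19 * 9240`. -/
def allDivs : List ℕ := prods ([19, 11, 7, 5, 3, 8].map smallDivs)

/-- The divisors of `9240`. -/
def cofDivs : List ℕ := prods ([11, 7, 5, 3, 8].map smallDivs)

/-- The possible data at the prime `p`. -/
def cand (o p : ℕ) : List (ℕ × ℕ) :=
  let D := allDivs.filter fun d => (o / p) % d == 0
  (D.filter fun n => decide (19 ≤ n) && n % p == 1).flatMap fun n =>
    let k := o / p / n
    ((D.filter fun c => k % c == 0).filter fun c =>
      decide (1 < k / c) && (p - 1) % (k / c) == 0 &&
        (!(p == 19 && n == 20) || k % 2 == 1)).map fun c => (n, c)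

/-- Compatibility of the data at two primes. -/
def compat (s t : ℕ × ℕ × ℕ) : Bool :=
  ((s.2.2 % t.1 == 0) == (t.2.2 % s.1 == 0)) &&
    (!(s.2.2 % t.1 == 0) || (allDivs.any fun a =>
      (t.2.2 / s.1) % a == 0 && a % s.1 == 1 && (t.2.1 * a) % s.2.1 == 0 &&
        (t.2.1 * a / s.2.1) % t.1 == 1 && (s.2.2 / t.1) % (t.2.1 * a / s.2.1) == 0))

/-- No two members commute. -/
def apart : List (ℕ × ℕ × ℕ) → Bool
  | [] => true
  | t :: ts => (ts.all fun s => !(t.2.2 % s.1 == 0) && !(s.2.2 % t.1 == 0)) && apart ts

/-- The number of elements of order divisible by the prime. -/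
def weight (t : ℕ × ℕ × ℕ) : ℕ := t.2.1 * (t.1 - 1) * t.2.2

/-- The tests passed by a genuine configuration. -/
def admissible (o : ℕ) (t : ℕ × ℕ × ℕ) (acc : List (ℕ × ℕ × ℕ)) : Bool :=
  (acc.all fun s => compat s t) &&
    (acc.sublists.all fun S => !apart (t :: S) || decide (((t :: S).map weight).sum < o))

/-- Every branch dies. -/
def search (o : ℕ) : List ℕ → List (ℕ × ℕ × ℕ) → Bool
  | [], _ => false
  | q :: qs, acc => (cand o q).all fun t =>
      !admissible o (q, t) acc || search o qs ((q, t) :: acc)

/-- The primes used for the order `19 * m`. -/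
def primesOf (m : ℕ) : List ℕ := [19, 11, 7, 5, 3].filter fun q => (19 * m) % q == 0

theorem search_all : ((cofDivs.filter fun m => m != 9240).all fun m =>
    search (19 * m) (primesOf m) []) = true := by
  decide +kernel

end Cfsg.Agent.H80.J1Order
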