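import Mathlib

/-!
# Sylow subgroups of prime order: commuting pairs and element counts
-/

namespace Cfsg.Agent.H80.J1Order

open Subgroup

variable (G : Type*) [Group G] [Finite G]

/-- The prime `p` divides the group order exactly once. -/
structure Once (p : ℕ) : Prop where
  prime : p.Prime
  dvd : p ∣ Nat.card G
  not_sq : ¬ p ^ 2 ∣ Nat.card G

/-- The index of a Sylow subgroup in its centralizer, for `p` dividing the order once. -/
noncomputable def cen (p : ℕ) : ℕ :=
  Nat.card (centralizer (((default : Sylow p G) : Subgroup G) : Set G)) / p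

variable {G}

theorem Once.card_sylow {p : ℕ} (hp : Once G p) (P : Sylow p G) :
    Nat.card (P : Subgroup G) = p := by
  have := Fact.mk hp.prime
  rw [P.card_eq_multiplicity]
  have h : (Nat.card G).factorization p = 1 := by
    apply le_antisymm
    · by_contra h
      exact hp.not_sq ((pow_dvd_pow p (not_le.mp h)).trans (Nat.ordProj_dvd _ _))
    · exact hp.prime.factorization_pos_of_dvd Nat.card_pos.ne' hp.dvd
  rw [h, pow_one]

theorem Once.sylow_le_centralizer {p : ℕ} (hp : Once G p) (P : Sylow p G) :
    (P : Subgroup G) ≤ centralizer ((P : Subgroup G) : Set G) := by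
  have := Fact.mk hp.prime
  have := isCyclic_of_prime_card (hp.card_sylow P)
  have : IsMulCommutative (P : Subgroup G) := IsCyclic.isMulCommutative
  exact le_centralizer _

theorem Once.card_centralizer {p : ℕ} (hp : Once G p) (P : Sylow p G) :
    Nat.card (centralizer ((P : Subgroup G) : Set G)) = p * cen G p := by
  have := Fact.mk hp.prime
  obtain ⟨g, hg⟩ := MulAction.exists_smul_eq G P (default : Sylow p G)
  have h1 : (centralizer ((P : Subgroup G) : Set G)).map (MulAut.conj g).toMonoidHom =
      centralizer (((default : Sylow p G) : Subgroup G) : Set G) := by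
    rw [← hg]
    ext x
    simp only [mem_map, mem_centralizer_iff, MulEquiv.coe_toMonoidHom, SetLike.mem_coe]
    constructor
    · rintro ⟨y, hy, rfl⟩ h hh
      rw [Sylow.coe_subgroup_smul, mem_pointwise_smul_iff_inv_smul_mem] at hh
      have := hy _ hh
      simp only [MulAut.conj_apply, MulAut.smul_def, MulAut.conj_inv_apply] at this ⊢
      have h2 := congrArg (fun z => g * z * g⁻¹) this
      group at h2 ⊢
      simpa [mul_assoc] using h2
    · intro hx
      refine ⟨g⁻¹ * x * g, fun h hh => ?_, by simp [mul_assoc]⟩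
      have := hx (g * h * g⁻¹) (by
        rw [Sylow.coe_subgroup_smul, mem_pointwise_smul_iff_inv_smul_mem]
        simpa [MulAut.smul_def, mul_assoc] using hh)
      have h2 := congrArg (fun z => g⁻¹ * z * g) this
      simpa [mul_assoc] using h2
  have h2 : Nat.card (centralizer ((P : Subgroup G) : Set G)) =
      Nat.card (centralizer (((default : Sylow p G) : Subgroup G) : Set G)) := by
    rw [← h1]
    exact (Nat.card_congr ((centralizer ((P : Subgroup G) : Set G)).equivMapOfInjective
      (MulAut.conj g).toMonoidHom (MulAut.conj g).injective).toEquiv)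
  have hd : p ∣ Nat.card (centralizer (((default : Sylow p G) : Subgroup G) : Set G)) :=
    (dvd_of_eq (hp.card_sylow default).symm).trans (card_dvd_of_le (hp.sylow_le_centralizer _))
  rw [h2, cen, Nat.mul_div_cancel' hd]

theorem Once.not_dvd_cen {p : ℕ} (hp : Once G p) : ¬ p ∣ cen G p := fun h =>
  hp.not_sq <| by
    rw [sq]
    exact ((Nat.mul_dvd_mul_left p h).trans (dvd_of_eq (hp.card_centralizer default).symm)).trans
      (card_subgroup_dvd_card _)

theorem Once.cen_pos {p : ℕ} (hp : Once G p) : 0 < cen G p :=
  Nat.pos_of_ne_zero fun h => hp.not_dvd_cen (h ▸ dvd_zero p)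

/-- The Sylow `q`-subgroups centralizing a Sylow `p`-subgroup. -/
abbrev Centralizing {p : ℕ} (q : ℕ) (P : Sylow p G) : Type _ :=
  {Q : Sylow q G // (Q : Subgroup G) ≤ centralizer ((P : Subgroup G) : Set G)}

/-- Sylow `q`-subgroups of a centralizer, when `q` divides the order once. -/
theorem card_centralizing {p q : ℕ} (hp : Once G p) (hq : Once G q) (hpq : p ≠ q)
    (h : q ∣ cen G p) (P : Sylow p G) :
    Nat.card (Centralizing q P) % q = 1 ∧ Nat.card (Centralizing q P) ∣ cen G p / q := by
  have := Fact.mk hq.prime
  let C := centralizer ((P : Subgroup G) : Set G)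
  have hC : Nat.card C = p * cen G p := hp.card_centralizer P
  have hqC : q ∣ Nat.card C := hC ▸ dvd_mul_of_dvd_right h p
  have hOnce : ∀ S : Sylow q C, Nat.card (S : Subgroup C) = q := fun S => by
    refine Once.card_sylow ⟨hq.prime, hqC, fun hh => hq.not_sq ?_⟩ S
    exact hh.trans (card_subgroup_dvd_card C)
  let e : Sylow q C ≃ Centralizing q P :=
    { toFun := fun S => ⟨Sylow.ofCard ((S : Subgroup C).map C.subtype) (by
          rw [← (default : Sylow q G).card_eq_multiplicity, hq.card_sylow,
            Nat.card_congr ((S : Subgroup C).equivMapOfInjective _ C.subtype_injective).toEquiv.symm,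
            hOnce S]), by
          rw [Sylow.coe_ofCard]
          exact Subgroup.map_subtype_le _⟩
      invFun := fun Q => Q.1.subtype Q.2
      left_inv := fun S => Sylow.ext <| by
        rw [Sylow.coe_subtype, Sylow.coe_ofCard]
        exact Subgroup.comap_map_eq_self_of_injective C.subtype_injective _
      right_inv := fun Q => Subtype.ext <| Sylow.ext <| by
        simp only [Sylow.coe_ofCard, Sylow.coe_subtype, subgroupOf_map_subtype]
        exact inf_eq_left.mpr Q.2 }
  rw [← Nat.card_congr e]
  constructor
  · have := card_sylow_modEq_one q C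
    rwa [Nat.ModEq, Nat.one_mod_eq_one.mpr hq.prime.ne_one] at this
  · obtain ⟨S⟩ : Nonempty (Sylow q C) := inferInstance
    let N := normalizer ((S : Subgroup C) : Set C)
    have hmul : Nat.card (Sylow q C) * Nat.card N = p * cen G p := by
      rw [← hC, S.card_eq_index_normalizer, mul_comm]
      exact card_mul_index _
    have hPc : (P : Subgroup G).subgroupOf C ≤ N := by
      intro x hx
      have hc : ∀ y : C, x * y = y * x := fun y => Subtype.ext <| by
        simpa using (mem_centralizer_iff.mp y.2 x.1 hx)
      rw [Subgroup.mem_normalizer_iff]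
      intro y
      rw [hc y, mul_inv_cancel_right]
    have hPcard : Nat.card ((P : Subgroup G).subgroupOf C) = p := by
      rw [Nat.card_congr (subgroupOfEquivOfLe (hp.sylow_le_centralizer P)).toEquiv,
        hp.card_sylow P]
    have h1 : p * q ∣ Nat.card N :=
      ((Nat.coprime_primes hp.prime hq.prime).mpr hpq).mul_dvd_of_dvd_of_dvd
        ((dvd_of_eq hPcard.symm).trans (card_dvd_of_le hPc))
        ((dvd_of_eq (hOnce S).symm).trans (card_dvd_of_le le_normalizer))
    obtain ⟨j, hj⟩ := h1
    refine ⟨j, ?_⟩
    rw [hj] at hmul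
    have h2 : cen G p = q * (Nat.card (Sylow q C) * j) :=
      Nat.eq_of_mul_eq_mul_left hp.prime.pos (by rw [← hmul]; ring)
    rw [h2, Nat.mul_div_cancel_left _ hq.prime.pos]

theorem le_centralizer_symm {A B : Subgroup G} (h : A ≤ centralizer (B : Set G)) :
    B ≤ centralizer (A : Set G) := fun b hb => mem_centralizer_iff.mpr fun a ha =>
  (mem_centralizer_iff.mp (h ha) b hb).symm

/-- Commuting is symmetric. -/
theorem dvd_cen_symm {p q : ℕ} (hp : Once G p) (hq : Once G q) (hpq : p ≠ q)
    (h : q ∣ cen G p) : p ∣ cen G q := by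
  have := Fact.mk hq.prime
  have := Fact.mk hp.prime
  have h1 := (card_centralizing hp hq hpq h default).1
  have : Nonempty (Centralizing q (default : Sylow p G)) := by
    by_contra hne
    rw [not_nonempty_iff] at hne
    rw [Nat.card_of_isEmpty] at h1
    simp at h1
  obtain ⟨Q, hQ⟩ := this
  have h2 : p ∣ q * cen G q := by
    rw [← hq.card_centralizer Q]
    exact (dvd_of_eq (hp.card_sylow default).symm).trans (card_dvd_of_le (le_centralizer_symm hQ))
  exact ((Nat.coprime_primes hp.prime hq.prime).mpr hpq).dvd_of_dvd_mul_left h2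

/-- Commuting pairs counted both ways. -/
theorem exists_pair_equation {p q : ℕ} (hp : Once G p) (hq : Once G q) (hpq : p ≠ q)
    (h : q ∣ cen G p) : ∃ a b : ℕ, a ∣ cen G q / p ∧ a % p = 1 ∧
      Nat.card (Sylow q G) * a = Nat.card (Sylow p G) * b ∧ b % q = 1 ∧ b ∣ cen G p / q := by
  classical
  have := Fact.mk hq.prime
  have := Fact.mk hp.prime
  let P₀ : Sylow p G := default
  let Q₀ : Sylow q G := default
  have h' := dvd_cen_symm hp hq hpq h
  obtain ⟨hb1, hb2⟩ := card_centralizing hp hq hpq h P₀
  obtain ⟨ha1, ha2⟩ := card_centralizing hq hp hpq.symm h' Q₀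
  refine ⟨_, _, ha2, ha1, ?_, hb1, hb2⟩
  have key : ∀ {r s : ℕ} [Fact r.Prime] (R R' : Sylow r G),
      Nat.card (Centralizing s R) = Nat.card (Centralizing s R') := by
    intro r s _ R R'
    obtain ⟨g, rfl⟩ := MulAction.exists_smul_eq G R R'
    refine Nat.card_congr ((MulAction.toPerm g : Equiv.Perm (Sylow s G)).subtypeEquiv fun S => ?_)
    simp only [MulAction.toPerm_apply, Sylow.coe_subgroup_smul]
    constructor
    · intro hS x hx
      rw [mem_pointwise_smul_iff_inv_smul_mem] at hx
      rw [mem_centralizer_iff]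
      intro y hy
      rw [SetLike.mem_coe, mem_pointwise_smul_iff_inv_smul_mem] at hy
      have h1 := mem_centralizer_iff.mp (hS hx) _ hy
      rw [← smul_mul', ← smul_mul'] at h1
      exact MulAction.injective (MulAut.conj g)⁻¹ h1
    · intro hS x hx
      rw [mem_centralizer_iff]
      intro y hy
      have h1 := mem_centralizer_iff.mp (hS (smul_mem_pointwise_smul x _ _ hx)) _
        (smul_mem_pointwise_smul y _ _ hy)
      rw [← smul_mul', ← smul_mul'] at h1
      exact MulAction.injective (MulAut.conj g) h1
  let e : (Σ Q : Sylow q G, Centralizing p Q) ≃ Σ P : Sylow p G, Centralizing q P :=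
    { toFun := fun x => ⟨x.2.1, x.1, le_centralizer_symm x.2.2⟩
      invFun := fun x => ⟨x.2.1, x.1, le_centralizer_symm x.2.2⟩
      left_inv := fun _ => rfl
      right_inv := fun _ => rfl }
  let _ : Fintype (Sylow p G) := Fintype.ofFinite _
  let _ : Fintype (Sylow q G) := Fintype.ofFinite _
  have h2 := Nat.card_congr e
  rw [Nat.card_sigma, Nat.card_sigma, Finset.sum_congr rfl (fun Q _ => key Q Q₀),
    Finset.sum_congr rfl (fun P _ => key P P₀), Finset.sum_const, Finset.sum_const,
    Finset.card_univ, Finset.card_univ, smul_eq_mul, smul_eq_mul, ← Nat.card_eq_fintype_card,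
    ← Nat.card_eq_fintype_card] at h2
  exact h2

/-- The elements whose `p`-part generates a Sylow subgroup which they centralize. -/
theorem exists_singular_set {p : ℕ} (hp : Once G p) :
    ∃ S : Finset G, Nat.card (Sylow p G) * (p - 1) * cen G p ≤ S.card ∧ (1 : G) ∉ S ∧
      ∀ g ∈ S, p ∣ orderOf g ∧
        ∃ P : Sylow p G, g ∈ centralizer ((P : Subgroup G) : Set G) := by
  classical
  have := Fact.mk hp.prime
  let _ : Fintype G := Fintype.ofFinite _
  let _ : Fintype (Sylow p G) := Fintype.ofFinite _
  let C := fun P : Sylow p G => centralizer ((P : Subgroup G) : Set G)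
  let c := cen G p
  have hcp : Nat.Coprime p c := hp.prime.coprime_iff_not_dvd.mpr hp.not_dvd_cen
  have hT : ∀ P : Sylow p G, ∀ g ∈ C P, g ^ c ∈ (P : Subgroup G) := by
    intro P g hg
    let P' := (P : Subgroup G).subgroupOf (C P)
    have hP'n : P'.Normal := by
      constructor
      intro x hx y
      have hc : y * x = x * y := Subtype.ext <| by
        simpa using (mem_centralizer_iff.mp y.2 x.1 hx).symm
      rwa [hc, mul_inv_cancel_right]
    have hcard : Nat.card P' = p := by
      rw [Nat.card_congr (subgroupOfEquivOfLe (hp.sylow_le_centralizer P)).toEquiv,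
        hp.card_sylow P]
    have hidx : P'.index = c := by
      have := card_mul_index P'
      rw [hcard, hp.card_centralizer P] at this
      exact Nat.eq_of_mul_eq_mul_left hp.prime.pos this
    have h1 : (⟨g, hg⟩ : C P) ^ c ∈ P' := hidx ▸ P'.pow_index_mem _
    simpa [P', mem_subgroupOf] using h1
  let T := fun P : Sylow p G => Finset.univ.filter fun g : G => g ∈ C P ∧ g ^ c ≠ 1
  have hTcard : ∀ P : Sylow p G, (p - 1) * c ≤ (T P).card := by
    intro P
    let P' := (P : Subgroup G).subgroupOf (C P)
    have hP'n : P'.Normal := by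
      constructor
      intro x hx y
      have hc : y * x = x * y := Subtype.ext <| by
        simpa using (mem_centralizer_iff.mp y.2 x.1 hx).symm
      rwa [hc, mul_inv_cancel_right]
    have hcard : Nat.card P' = p := by
      rw [Nat.card_congr (subgroupOfEquivOfLe (hp.sylow_le_centralizer P)).toEquiv,
        hp.card_sylow P]
    have hidx : P'.index = c := by
      have := card_mul_index P'
      rw [hcard, hp.card_centralizer P] at this
      exact Nat.eq_of_mul_eq_mul_left hp.prime.pos this
    obtain ⟨K, hK⟩ := Subgroup.exists_right_complement'_of_coprime (N := P')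
      (by rw [hcard, hidx]; exact hcp)
    have hKcard : Nat.card K = c := by
      have := hK.card_mul
      rw [hcard, hp.card_centralizer P] at this
      exact Nat.eq_of_mul_eq_mul_left hp.prime.pos this
    let f : {x : P' // x ≠ 1} × K → {g : G // g ∈ T P} := fun z =>
      ⟨((z.1.1 : C P) * (z.2 : C P) : C P), by
        simp only [T, Finset.mem_filter, Finset.mem_univ, true_and, Subgroup.coe_mul,
          SetLike.coe_mem, ne_eq]
        refine ⟨mul_mem (SetLike.coe_mem _) (SetLike.coe_mem _), fun h => z.1.2 ?_⟩
        have hc : Commute (z.1.1 : C P) (z.2 : C P) := Subtype.ext <| by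
          simpa using (mem_centralizer_iff.mp (z.2 : C P).2 _ z.1.1.2)
        have h' : ((z.1.1 : C P) * (z.2 : C P)) ^ c = 1 := Subtype.ext (by simpa using h)
        have hk : ((z.2 : C P)) ^ c = 1 := by
          rw [← hKcard, ← SubgroupClass.coe_pow, pow_card_eq_one', Subgroup.coe_one]
        rw [hc.mul_pow, hk, mul_one] at h'
        have hx : z.1.1 ^ c = 1 := Subtype.ext (by simpa using h')
        refine orderOf_eq_one_iff.mp (Nat.eq_one_of_dvd_coprimes hcp ?_
          (orderOf_dvd_of_pow_eq_one hx))
        exact hcard ▸ orderOf_dvd_natCard _⟩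
    have hf : Function.Injective f := by
      rintro ⟨x, k⟩ ⟨x', k'⟩ h
      have h0 : (((x.1 : C P) * (k : C P) : C P) : G) = ((x'.1 : C P) * (k' : C P) : C P) :=
        congrArg (fun z : {g : G // g ∈ T P} => (z : G)) h
      have h' : ((x.1 : C P) * (k : C P)) = (x'.1 : C P) * (k' : C P) := Subtype.ext h0
      have := hK.injective (a₁ := (x.1, k)) (a₂ := (x'.1, k')) h'
      simp only [Prod.mk.injEq] at this
      exact Prod.ext (Subtype.ext this.1) this.2
    have h1 := Nat.card_le_card_of_injective f hf
    rw [Nat.card_prod, hKcard, Nat.card_eq_fintype_card (α := {g : G // g ∈ T P}),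
      Fintype.card_coe] at h1
    have h2 : Nat.card {x : P' // x ≠ 1} = p - 1 := by
      rw [Nat.card_eq_fintype_card, Fintype.card_subtype_compl, Fintype.card_subtype_eq,
        ← Nat.card_eq_fintype_card, hcard]
    rwa [h2] at h1
  have huniq : ∀ (P : Sylow p G) (g : G), g ∈ T P → zpowers (g ^ c) = (P : Subgroup G) ∧
      p ∣ orderOf g := by
    intro P g hg
    simp only [T, Finset.mem_filter, Finset.mem_univ, true_and] at hg
    have hm := hT P g hg.1
    have ho : orderOf (g ^ c) = p := by
      have hd : orderOf (g ^ c) ∣ p := by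
        have := orderOf_dvd_natCard (⟨_, hm⟩ : (P : Subgroup G))
        rwa [Subgroup.orderOf_mk, hp.card_sylow] at this
      exact ((Nat.dvd_prime hp.prime).mp hd).resolve_left fun h =>
        hg.2 (orderOf_eq_one_iff.mp h)
    refine ⟨eq_of_le_of_card_ge (zpowers_le.mpr hm) ?_, ?_⟩
    · rw [Nat.card_zpowers, ho, hp.card_sylow]
    · conv_lhs => rw [← ho]
      exact orderOf_pow_dvd c
  refine ⟨Finset.univ.biUnion T, ?_, ?_, ?_⟩
  · rw [Finset.card_biUnion]
    · calc Nat.card (Sylow p G) * (p - 1) * cen G p
          = ∑ _P : Sylow p G, (p - 1) * c := by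
            rw [Finset.sum_const, Finset.card_univ, smul_eq_mul, ← Nat.card_eq_fintype_card,
              mul_assoc]
        _ ≤ _ := Finset.sum_le_sum fun P _ => hTcard P
    · intro P _ P' _ hne
      refine Finset.disjoint_left.mpr fun g h h' => hne (Sylow.ext ?_)
      rw [← (huniq P g h).1, (huniq P' g h').1]
  · simp [T]
  · intro g hg
    obtain ⟨P, -, hP⟩ := Finset.mem_biUnion.mp hg
    refine ⟨(huniq P g hP).2, P, ?_⟩
    simp only [T, Finset.mem_filter, Finset.mem_univ, true_and] at hP
    exact hP.1

/-- Pairwise non-commuting primes: their singular sets are disjoint. -/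
theorem sum_weight_lt (l : List ℕ) (hnd : l.Nodup) (hl : ∀ p ∈ l, Once G p)
    (hap : ∀ p ∈ l, ∀ q ∈ l, p ≠ q → ¬ q ∣ cen G p) :
    (l.map fun p => Nat.card (Sylow p G) * (p - 1) * cen G p).sum < Nat.card G := by
  classical
  let _ : Fintype G := Fintype.ofFinite _
  choose! S hS1 hS2 hS3 using fun p (hp : Once G p) => exists_singular_set hp
  have hdisj : (l.toFinset : Set ℕ).PairwiseDisjoint S := by
    intro p hp q hq hpq
    simp only [Finset.mem_coe, List.mem_toFinset] at hp hq
    refine Finset.disjoint_left.mpr fun g hgp hgq => hap p hp q hq hpq ?_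
    obtain ⟨-, P, hP⟩ := hS3 p (hl p hp) g hgp
    obtain ⟨hqo, -⟩ := hS3 q (hl q hq) g hgq
    have h1 : q ∣ p * cen G p := by
      rw [← (hl p hp).card_centralizer P]
      refine hqo.trans ?_
      have := orderOf_dvd_natCard (⟨g, hP⟩ : centralizer ((P : Subgroup G) : Set G))
      rwa [Subgroup.orderOf_mk] at this
    exact ((Nat.coprime_primes (hl q hq).prime (hl p hp).prime).mpr hpq.symm).dvd_of_dvd_mul_left h1
  have h1 : l.toFinset.biUnion S ⊂ Finset.univ := by
    rw [Finset.ssubset_univ_iff]
    intro h
    have : (1 : G) ∈ l.toFinset.biUnion S := h ▸ Finset.mem_univ 1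
    obtain ⟨p, hp, hp1⟩ := Finset.mem_biUnion.mp this
    exact hS2 p (hl p (List.mem_toFinset.mp hp)) hp1
  have h2 := Finset.card_lt_card h1
  rw [Finset.card_biUnion hdisj, Finset.card_univ, ← Nat.card_eq_fintype_card] at h2
  refine lt_of_le_of_lt ?_ h2
  rw [← List.sum_toFinset _ hnd]
  exact Finset.sum_le_sum fun p hp => hS1 p (hl p (List.mem_toFinset.mp hp))

end Cfsg.Agent.H80.J1Order
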