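import Cfsg.Agent.H80.J1Order.Check
import Cfsg.Agent.H80.J1Order.Pairs
import Cfsg.Agent.H30.PermNormalizer
import Cfsg.Agent.H90.SylowBasic

/-!
# Groups of order dividing 175560 have a normal Sylow 19-subgroup or are simple
-/

namespace Cfsg.Agent.H80.J1Order

open Subgroup

universe u

theorem mem_prods : ∀ (Ls : List (List ℕ)) (xs : List ℕ) (d : ℕ), d ∣ xs.prod →
    List.Forall₂ (fun L x => ∀ e, e ∣ x → e ∈ L) Ls xs → d ∈ prods Ls
  | [], [], d, hd, _ => by simpa [prods] using hd
  | _ :: Ls, _ :: xs, d, hd, .cons h hs => by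
    rw [List.prod_cons] at hd
    obtain ⟨a, b, ha, hb, rfl⟩ := Nat.dvd_mul.mp hd
    exact List.mem_flatMap.mpr ⟨a, h a ha, List.mem_map.mpr ⟨b, mem_prods Ls xs b hb hs, rfl⟩⟩

theorem mem_smallDivs {n e : ℕ} (hn : n ≠ 0) (h : e ∣ n) : e ∈ smallDivs n := by
  have he : e ≠ 0 := by rintro rfl; exact hn (Nat.eq_zero_of_zero_dvd h)
  have := Nat.le_of_dvd (Nat.pos_of_ne_zero hn) h
  simp [smallDivs, Nat.dvd_iff_mod_eq_zero.mp h, he]
  omega

theorem mem_allDivs {d : ℕ} (h : d ∣ 175560) : d ∈ allDivs :=
  mem_prods _ [19, 11, 7, 5, 3, 8] d (by norm_num; exact h) (by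
    simp only [List.map_cons, List.map_nil, List.forall₂_cons, List.forall₂_nil_left_iff, and_true]
    exact ⟨fun _ => mem_smallDivs (by norm_num), fun _ => mem_smallDivs (by norm_num),
      fun _ => mem_smallDivs (by norm_num), fun _ => mem_smallDivs (by norm_num),
      fun _ => mem_smallDivs (by norm_num), fun _ => mem_smallDivs (by norm_num)⟩)

theorem mem_cofDivs {d : ℕ} (h : d ∣ 9240) : d ∈ cofDivs :=
  mem_prods _ [11, 7, 5, 3, 8] d (by norm_num; exact h) (by
    simp only [List.map_cons, List.map_nil, List.forall₂_cons, List.forall₂_nil_left_iff, and_true]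
    exact ⟨fun _ => mem_smallDivs (by norm_num), fun _ => mem_smallDivs (by norm_num),
      fun _ => mem_smallDivs (by norm_num),
      fun _ => mem_smallDivs (by norm_num), fun _ => mem_smallDivs (by norm_num)⟩)

/-- Prime power divisors of 9240 are below 19. -/
theorem primePow_dvd_lt {q k : ℕ} (hq : q.Prime) (h : q ^ k ∣ 9240) : q ^ k < 19 := by
  have hmem := mem_cofDivs h
  have hall : ∀ d ∈ cofDivs, d < 19 ∨ ∃ a ∈ [2, 3, 5, 7, 11], ∃ b ∈ [2, 3, 5, 7, 11],
      a ≠ b ∧ a ∣ d ∧ b ∣ d := by decide +kernel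
  refine (hall _ hmem).resolve_right ?_
  rintro ⟨a, ha, b, hb, hab, had, hbd⟩
  have key : ∀ a ∈ [2, 3, 5, 7, 11], a ∣ q ^ k → a = q := fun a ha hd =>
    (Nat.prime_dvd_prime_iff_eq (by fin_cases ha <;> norm_num) hq).mp
      (Nat.Prime.dvd_of_dvd_pow (by fin_cases ha <;> norm_num) hd)
  exact hab ((key a ha had).trans (key b hb hbd).symm)

variable {G : Type u} [Group G] [Finite G]

/-- A Sylow normalizer of a simple group of degree twenty has half-order odd. -/
theorem odd_of_degree_twenty [IsSimpleGroup G] (hG : ¬ IsMulCommutative G)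
    [Fact (Nat.Prime 19)] (P : Sylow 19 G) (hP : Nat.card (P : Subgroup G) = 19)
    (h20 : Nat.card (Sylow 19 G) = 20) (k : ℕ)
    (hN : Nat.card (normalizer ((P : Subgroup G) : Set G)) = 19 * k) : Odd k := by
  classical
  let H := normalizer ((P : Subgroup G) : Set G)
  have hidx : H.index = 20 := P.card_eq_index_normalizer.symm.trans h20
  have hHt : H ≠ ⊤ := fun h => by rw [h, index_top] at hidx; omega
  obtain ⟨f, hf⟩ := H30.exists_hom_alternating hG H hHt
  let φ : G →* Equiv.Perm (Fin H.index) := (alternatingGroup (Fin H.index)).subtype.comp f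
  have hφ : Function.Injective φ := Subtype.val_injective.comp hf
  have hc1 : 19 ≤ Fintype.card (Fin H.index) := by rw [Fintype.card_fin, hidx]; norm_num
  have hc2 : Fintype.card (Fin H.index) < 2 * 19 := by rw [Fintype.card_fin, hidx]; norm_num
  let S := (P : Subgroup G).map φ
  have hS : Nat.card S = 19 := by
    rw [← Nat.card_congr ((P : Subgroup G).equivMapOfInjective φ hφ).toEquiv, hP]
  let Q₀ : Sylow 19 (Equiv.Perm (Fin H.index)) := default
  let Q : Sylow 19 (Equiv.Perm (Fin H.index)) := Sylow.ofCard S (by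
    rw [← Q₀.card_eq_multiplicity, H30.card_sylow_perm_lt_two_mul hc1 hc2 Q₀, hS])
  have hQ : (Q : Subgroup (Equiv.Perm (Fin H.index))) = S := Sylow.coe_ofCard ..
  have hNS := H30.card_normalizer_sylow_perm hc1 hc2 Q
  let A := alternatingGroup (Fin H.index)
  let M := normalizer ((Q : Subgroup (Equiv.Perm (Fin H.index))) : Set (Equiv.Perm (Fin H.index)))
  -- the odd permutations meet the normalizer
  have hQA : (Q : Subgroup (Equiv.Perm (Fin H.index))) ≤ A :=
    H30.sylow_perm_le_alternating (by norm_num) Q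
  have hsup : M ⊔ A = ⊤ := Sylow.normalizer_sup_eq_top' (N := A) Q hQA
  have hNM : H.map φ ≤ M ⊓ A := by
    refine le_inf ?_ ?_
    · exact (le_normalizer_map φ).trans (le_of_eq (by simp [M, hQ, S]))
    · rintro x ⟨g, -, rfl⟩
      exact (f g).2
  have hMA : 2 * Nat.card (M ⊓ A : Subgroup _) = Nat.card M := by
    have : Nontrivial (Fin H.index) := Fin.nontrivial_iff_two_le.mpr (by rw [hidx]; norm_num)
    have h1 : A.relIndex M = 2 := by
      rw [← relIndex_sup_right, hsup, relIndex_top_right, alternatingGroup.index_eq_two]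
    have h2 := relIndex_mul_relIndex ⊥ (M ⊓ A) M bot_le inf_le_left
    rw [relIndex_bot_left, relIndex_bot_left, inf_relIndex_left, h1, mul_comm] at h2
    exact h2
  have hdvd : 19 * k ∣ Nat.card (M ⊓ A : Subgroup _) := by
    rw [← hN, Nat.card_congr (H.equivMapOfInjective φ hφ).toEquiv]
    exact card_dvd_of_le hNM
  have h342 : 2 * Nat.card (M ⊓ A : Subgroup _) = 342 := by
    rw [hMA, hNS, Fintype.card_fin, hidx]
    norm_num [Nat.factorial]
  have h171 : k ∣ 9 := Nat.dvd_of_mul_dvd_mul_left (by norm_num : 0 < 19)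
    (by rw [show 19 * 9 = Nat.card (M ⊓ A : Subgroup _) by omega]; exact hdvd)
  have := Nat.le_of_dvd (by norm_num) h171
  interval_cases k <;> first | decide | (exfalso; revert h171; decide)

/-- The datum of a simple group lies among the candidates. -/
theorem mem_cand [IsSimpleGroup G] (hG : ¬ IsMulCommutative G) (h19 : 19 ∣ Nat.card G)
    (hdiv : Nat.card G ∣ 175560) {q : ℕ} (hq : Once G q) :
    (Nat.card (Sylow q G), cen G q) ∈ cand (Nat.card G) q := by
  have := Fact.mk hq.prime
  let P : Sylow q G := default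
  have hP := hq.card_sylow P
  obtain ⟨e, c, he, h1e, hN, hC⟩ := H30.exists_automizer_of_prime_order hG q P hP
  have hc : c = cen G q :=
    Nat.eq_of_mul_eq_mul_left hq.prime.pos (hC.symm.trans (hq.card_centralizer P))
  have hmul := H30.card_sylow_mul_normalizer q P
  rw [hN, hc] at hmul
  set n := Nat.card (Sylow q G) with hn
  have hr : Nat.card G / q = n * (cen G q * e) := by
    rw [← hmul, show n * (q * cen G q * e) = n * (cen G q * e) * q by ring,
      Nat.mul_div_cancel _ hq.prime.pos]
  have hn0 : 0 < n := Nat.card_pos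
  have hk : Nat.card G / q / n = cen G q * e := by
    rw [hr, Nat.mul_div_cancel_left _ hn0]
  have h19n : 19 ≤ n := (Nat.Prime.dvd_factorial (by norm_num : Nat.Prime 19)).mp
    ((h19.trans (dvd_mul_left _ 2)).trans (H30.two_mul_card_dvd_factorial_sylow hG q hq.dvd))
  have hD : ∀ d, d ∣ Nat.card G / q →
      d ∈ allDivs.filter fun d => (Nat.card G / q) % d == 0 := fun d hd =>
    List.mem_filter.mpr ⟨mem_allDivs ((hd.trans (Nat.div_dvd_of_dvd hq.dvd)).trans hdiv),
      by simpa using Nat.mod_eq_zero_of_dvd hd⟩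
  have hmod : n % q = 1 := by
    have := card_sylow_modEq_one q G
    rwa [Nat.ModEq, Nat.one_mod_eq_one.mpr hq.prime.ne_one] at this
  simp only [cand, List.mem_flatMap, List.mem_map, List.mem_filter]
  refine ⟨n, ⟨List.mem_filter.mp (hD n (hr ▸ dvd_mul_right n _)), ?_⟩, cen G q, ⟨⟨
    List.mem_filter.mp (hD (cen G q) (hr ▸ dvd_mul_of_dvd_right (dvd_mul_right _ e) n)), ?_⟩, ?_⟩,
    rfl⟩
  · simp [h19n, hmod]
  · rw [hk]
    simp
  · have he' : cen G q * e / cen G q = e := Nat.mul_div_cancel_left e hq.cen_pos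
    rw [hk, he']
    have hodd : q = 19 → n = 20 → Odd (cen G q * e) := by
      rintro rfl h20
      exact odd_of_degree_twenty hG P hP h20 _ (by rw [hN, hc, mul_assoc])
    rcases em (q = 19 ∧ n = 20) with ⟨h1, h2⟩ | h3
    · have := Nat.odd_iff.mp (hodd h1 h2)
      simp [h1e, Nat.mod_eq_zero_of_dvd he, this]
    · simp [h1e, Nat.mod_eq_zero_of_dvd he]
      tauto

/-- Genuine data pass the pair test. -/
theorem compat_true (hdiv : Nat.card G ∣ 175560) {p q : ℕ} (hp : Once G p) (hq : Once G q)
    (hpq : p ≠ q) :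
    compat (p, Nat.card (Sylow p G), cen G p) (q, Nat.card (Sylow q G), cen G q) = true := by
  have := Fact.mk hp.prime
  have hsym : (cen G p % q = 0) ↔ (cen G q % p = 0) := by
    rw [← Nat.dvd_iff_mod_eq_zero, ← Nat.dvd_iff_mod_eq_zero]
    exact ⟨dvd_cen_symm hp hq hpq, dvd_cen_symm hq hp hpq.symm⟩
  simp only [compat, Bool.and_eq_true, Bool.or_eq_true, beq_iff_eq, Bool.not_eq_true',
    beq_eq_false_iff_ne, ne_eq, List.any_eq_true]
  refine ⟨?_, ?_⟩
  · by_cases h : cen G p % q = 0
    · simp [h, hsym.mp h]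
    · simp [h, mt hsym.mpr h]
  · by_cases h : cen G p % q = 0
    · right
      obtain ⟨a, b, ha, ha1, heq, hb1, hb⟩ :=
        exists_pair_equation hp hq hpq (Nat.dvd_of_mod_eq_zero h)
      have hpd : p ∣ cen G q := Nat.dvd_of_mod_eq_zero (hsym.mp h)
      have haG : a ∣ Nat.card G := (ha.trans (Nat.div_dvd_of_dvd hpd)).trans
        ((dvd_mul_left _ q).trans ((dvd_of_eq (hq.card_centralizer default).symm).trans
          (card_subgroup_dvd_card _)))
      have hn0 : 0 < Nat.card (Sylow p G) := Nat.card_pos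
      refine ⟨a, mem_allDivs (haG.trans hdiv), ?_⟩
      rw [heq, Nat.mul_div_cancel_left _ hn0, Nat.mul_mod_right]
      simp [Nat.mod_eq_zero_of_dvd ha, ha1, hb1, Nat.mod_eq_zero_of_dvd hb]
    · left; exact h

/-- The datum attached to a prime. -/
noncomputable def datum (G : Type u) [Group G] [Finite G] (p : ℕ) : ℕ × ℕ × ℕ :=
  (p, Nat.card (Sylow p G), cen G p)

theorem apart_spec : ∀ (l : List ℕ), apart (l.map (datum G)) = true →
    ∀ p ∈ l, ∀ q ∈ l, p ≠ q → ¬ q ∣ cen G p
  | [], _, p, hp, _, _, _ => absurd hp (by simp)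
  | t :: ts, h, p, hp, q, hq, hne => by
    simp only [List.map_cons, apart, Bool.and_eq_true, List.all_eq_true, List.mem_map,
      Bool.not_eq_true', beq_eq_false_iff_ne, ne_eq, forall_exists_index, and_imp,
      forall_apply_eq_imp_iff₂] at h
    rw [Nat.dvd_iff_mod_eq_zero]
    rcases List.mem_cons.mp hp with rfl | hp'
    · rcases List.mem_cons.mp hq with rfl | hq'
      · exact absurd rfl hne
      · exact (h.1 q hq').1
    · rcases List.mem_cons.mp hq with rfl | hq'
      · exact (h.1 p hp').2
      · exact Nat.dvd_iff_mod_eq_zero.not.mp (apart_spec ts h.2 p hp' q hq' hne)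

/-- The search is sound: its success is incompatible with genuine data. -/
theorem search_false [IsSimpleGroup G] (hG : ¬ IsMulCommutative G) (h19 : 19 ∣ Nat.card G)
    (hdiv : Nat.card G ∣ 175560) : ∀ (qs acc : List ℕ), (qs ++ acc).Nodup →
    (∀ q ∈ qs ++ acc, Once G q) →
    search (Nat.card G) qs (acc.map (datum G)) = false
  | [], acc, _, _ => rfl
  | q :: qs, acc, hnd, hl => by
    have hq : Once G q := hl q (by simp)
    rw [← Bool.not_eq_true]
    intro hs
    simp only [search, List.all_eq_true] at hs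
    have h := hs _ (mem_cand hG h19 hdiv hq)
    simp only [Bool.or_eq_true, Bool.not_eq_true'] at h
    have hperm : (qs ++ (q :: acc)).Perm (q :: qs ++ acc) := List.perm_middle
    have hqacc : q ∉ acc := fun h => (List.nodup_cons.mp hnd).1 (List.mem_append_right _ h)
    rcases h with h | h
    · rw [← Bool.not_eq_true] at h
      refine h ?_
      simp only [admissible, Bool.and_eq_true, List.all_eq_true]
      refine ⟨fun s hs => ?_, fun S hS => ?_⟩
      · obtain ⟨p, hp, rfl⟩ := List.mem_map.mp hs
        exact compat_true hdiv (hl p (by simp [hp])) hq (fun e => hqacc (e ▸ hp))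
      · rw [List.sublists_map, List.mem_map] at hS
        obtain ⟨l, hlsub, rfl⟩ := hS
        have hsub : l.Sublist acc := List.mem_sublists.mp hlsub
        change (!apart ((q :: l).map (datum G)) || decide ((((q :: l).map (datum G)).map weight).sum
          < Nat.card G)) = true
        rw [Bool.or_eq_true, Bool.not_eq_true', decide_eq_true_eq, ← Bool.not_eq_true]
        refine (em _).symm.imp id fun hap => ?_
        have hnd' : (q :: l).Nodup := List.nodup_cons.mpr ⟨fun h => hqacc (hsub.subset h),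
          ((List.nodup_cons.mp hnd).2.sublist (List.sublist_append_right qs acc)).sublist hsub⟩
        have := sum_weight_lt (q :: l) hnd' (fun p hp => hl p (by
            rcases List.mem_cons.mp hp with rfl | hp
            · simp
            · simp [hsub.subset hp])) (apart_spec _ hap)
        simpa [List.map_map, Function.comp_def, weight, datum] using this
    · have := search_false hG h19 hdiv qs (q :: acc) (hperm.nodup_iff.mpr hnd)
        (fun p hp => hl p (hperm.subset hp))
      rw [List.map_cons] at this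
      exact Bool.false_ne_true (this.symm.trans h)

theorem not_simple {m : ℕ} (hm : m ∣ 9240) (hne : m ≠ 9240) (hm1 : m ≠ 1)
    (hG : Nat.card G = 19 * m) : ¬ IsSimpleGroup G := by
  intro hs
  have hcomm : ¬ IsMulCommutative G := H30.not_comm_of_not_prime (by
    rw [hG]; exact Nat.not_prime_mul (by norm_num) hm1)
  have hdiv : Nat.card G ∣ 175560 := hG ▸ (Nat.mul_dvd_mul_left 19 hm : 19 * m ∣ 19 * 9240)
  have h := List.all_eq_true.mp search_all m (List.mem_filter.mpr ⟨mem_cofDivs hm, by simpa using hne⟩)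
  rw [← hG] at h
  have h' := search_false hcomm (hG ▸ dvd_mul_right 19 m) hdiv (primesOf m) []
    (by rw [List.append_nil]; exact List.Nodup.filter _ (by decide)) (by
      intro q hq
      simp only [List.append_nil, primesOf, List.mem_filter, List.mem_cons, List.not_mem_nil,
        or_false, beq_iff_eq] at hq
      refine ⟨?_, hG ▸ Nat.dvd_of_mod_eq_zero hq.2, fun hh => ?_⟩
      · rcases hq.1 with rfl | rfl | rfl | rfl | rfl <;> norm_num
      · have h2 := hh.trans hdiv
        rcases hq.1 with rfl | rfl | rfl | rfl | rfl <;> norm_num at h2)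
  exact Bool.false_ne_true (h'.symm.trans h)

/-- A non-simple group whose proper cases have normal Sylow 19-subgroups has one too. -/
theorem card_sylow_eq_one_of_not_simple {m : ℕ} (hm : m ∣ 9240) (hG : Nat.card G = 19 * m)
    (hs : ¬ IsSimpleGroup G)
    (ih : ∀ m' < m, ∀ (H : Type u) [Group H] [Finite H], Nat.card H = 19 * m' →
      m' ∣ 9240 → Nat.card (Sylow 19 H) = 1) : Nat.card (Sylow 19 G) = 1 := by
  classical
  have : Fact (Nat.Prime 19) := ⟨by norm_num⟩
  have hm0 : 0 < m := Nat.pos_of_dvd_of_pos hm (by norm_num)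
  have h19m : ¬ 19 ∣ m := fun h => by have := h.trans hm; norm_num at this
  have : Nontrivial G := Finite.one_lt_card_iff_nontrivial.mp (by rw [hG]; omega)
  obtain ⟨N, hN, hN0, hN1⟩ : ∃ N : Subgroup G, N.Normal ∧ N ≠ ⊥ ∧ N ≠ ⊤ := by
    by_contra h
    push Not at h
    exact hs { eq_bot_or_eq_top_of_normal := fun N hN => or_iff_not_imp_left.mpr (h N hN) }
  have hmul : Nat.card N * N.index = 19 * m := hG ▸ N.card_mul_index
  have hi2 : 2 ≤ N.index := by
    have := index_ne_zero_of_finite (H := N)
    have : N.index ≠ 1 := fun h => hN1 (index_eq_one.mp h)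
    omega
  have hN2 : 2 ≤ Nat.card N := (Subgroup.one_lt_card_iff_ne_bot N).mpr hN0
  -- proper normal subgroups of index prime to 19
  have key : ∀ M : Subgroup G, M.Normal → M ≠ ⊤ → ¬ 19 ∣ M.index →
      Nat.card (Sylow 19 G) = 1 := by
    intro M hM hM1 hMi
    have hmulM : Nat.card M * M.index = 19 * m := hG ▸ M.card_mul_index
    obtain ⟨m', hm'⟩ : 19 ∣ Nat.card M :=
      ((Nat.coprime_comm.mp ((Fact.out : Nat.Prime 19).coprime_iff_not_dvd.mpr hMi)).symm).dvd_of_dvd_mul_right
        (hmulM ▸ dvd_mul_right 19 m)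
    have hmm : m' * M.index = m := Nat.eq_of_mul_eq_mul_left (by norm_num : 0 < 19)
      (by rw [← mul_assoc, ← hm', hmulM])
    rw [← H90.card_sylow_normal_subgroup M hMi]
    refine ih m' ?_ M hm' ((Dvd.intro _ hmm).trans hm)
    have h0 := index_ne_zero_of_finite (H := M)
    have h1 : M.index ≠ 1 := fun h => hM1 (index_eq_one.mp h)
    rw [← hmm]
    exact lt_mul_of_one_lt_right (Nat.pos_of_ne_zero fun h => by rw [h, zero_mul] at hmm; omega)
      (by omega)
  by_cases hNi : 19 ∣ N.index
  swap
  · exact key N hN hN1 hNi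
  obtain ⟨m'', hm''⟩ := hNi
  have hNcop : ¬ 19 ∣ Nat.card N := fun h => h19m (by
    obtain ⟨j, hj⟩ := h
    exact ⟨j * m'', Nat.eq_of_mul_eq_mul_left (by norm_num : 0 < 19)
      (by rw [← hmul, hj, hm'']; ring)⟩)
  have hmN : Nat.card N * m'' = m := Nat.eq_of_mul_eq_mul_left (by norm_num : 0 < 19)
    (by rw [← hmul, hm'']; ring)
  have hm''lt : m'' < m := by
    have h0 : 0 < m'' := Nat.pos_of_ne_zero fun h => by rw [h, mul_zero] at hmN; omega
    rw [← hmN]
    exact lt_mul_of_one_lt_left h0 (by omega)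
  let π := QuotientGroup.mk' N
  let P : Sylow 19 G := default
  have hPcard : Nat.card (P : Subgroup G) = 19 := by
    rw [H30.card_sylow_subgroup P (a := 1) (by rw [pow_one]; exact hG) h19m, pow_one]
  have hq1 : Nat.card (Sylow 19 (G ⧸ N)) = 1 :=
    ih m'' hm''lt (G ⧸ N) hm'' ((Dvd.intro_left _ hmN).trans hm)
  let Pbar : Sylow 19 (G ⧸ N) := P.mapSurjective (f := π) QuotientGroup.mk_surjective
  have : Subsingleton (Sylow 19 (G ⧸ N)) := (Nat.card_eq_one_iff_unique.mp hq1).1
  have hbar : ((P : Subgroup G).map π).Normal := Sylow.normal_of_subsingleton Pbar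
  let M := (P : Subgroup G) ⊔ N
  have hMn : M.Normal := by
    have := hbar.comap π
    rwa [Subgroup.comap_map_eq, QuotientGroup.ker_mk'] at this
  have hMcard : Nat.card M = 19 * Nat.card N := by
    have h1 := card_mul_index (N.subgroupOf M)
    rw [Nat.card_congr (subgroupOfEquivOfLe (le_sup_right : N ≤ M)).toEquiv,
      ← relIndex, relIndex_sup_right] at h1
    have h2 : N.relIndex (P : Subgroup G) = 19 := by
      have hbot : N.subgroupOf (P : Subgroup G) = ⊥ := by
        rw [subgroupOf_eq_bot]
        rw [disjoint_iff]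
        exact inf_eq_bot_of_coprime (by
          rw [hPcard]
          exact Nat.coprime_comm.mp ((Fact.out : Nat.Prime 19).coprime_iff_not_dvd.mpr hNcop))
      rw [relIndex, hbot, index_bot, hPcard]
    rw [← h1, h2, mul_comm]
  by_cases hMtop : M = ⊤
  swap
  · refine key M hMn hMtop fun h => h19m ?_
    obtain ⟨j, hj⟩ := h
    have := M.card_mul_index
    rw [hMcard, hj, hG] at this
    exact ⟨Nat.card N * j, Nat.eq_of_mul_eq_mul_left (by norm_num : 0 < 19)
      (by rw [← this]; ring)⟩
  -- `N` is a complement: every Sylow subgroup of `N` is centralized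
  have hNm : Nat.card N = m := by
    rw [hMtop, card_top, hG] at hMcard
    omega
  let H := normalizer ((P : Subgroup G) : Set G)
  suffices hH : H.index ∣ 1 by
    rw [P.card_eq_index_normalizer]
    exact Nat.dvd_one.mp hH
  by_contra hH
  obtain ⟨q, hq, hqd⟩ := Nat.exists_prime_and_dvd (fun h => hH (h ▸ dvd_rfl))
  have := Fact.mk hq
  have hidx : H.index ∣ m := by
    show (normalizer (P : Set G)).index ∣ m
    rw [← P.card_eq_index_normalizer]
    exact H30.card_sylow_dvd (a := 1) (by rw [pow_one]; exact hG) h19m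
  have hq19 : q ≠ 19 := fun h => h19m (h ▸ hqd.trans hidx)
  let Q : Sylow q N := default
  let Q' : Subgroup G := (Q : Subgroup N).map N.subtype
  have hQ'card : Nat.card Q' = q ^ m.factorization q := by
    rw [← Nat.card_congr ((Q : Subgroup N).equivMapOfInjective _ N.subtype_injective).toEquiv,
      Q.card_eq_multiplicity, hNm]
  have hQle : Nat.card Q' < 19 := by
    rw [hQ'card]
    have hd : q ^ m.factorization q ∣ 9240 := (Nat.ordProj_dvd m q).trans hm
    exact primePow_dvd_lt hq hd
  let NQ := normalizer (Q' : Set G)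
  have hfr : NQ ⊔ N = ⊤ := Sylow.normalizer_sup_eq_top Q
  have h19NQ : 19 ∣ Nat.card NQ := by
    by_contra h
    have h1 : N.relIndex NQ = 19 := by
      rw [← relIndex_sup_right, hfr, relIndex_top_right]
      exact Nat.eq_of_mul_eq_mul_left hm0 (by rw [← hNm, N.card_mul_index, hG, hNm, mul_comm])
    exact h (h1 ▸ N.relIndex_dvd_card NQ)
  obtain ⟨x, hx⟩ := exists_prime_orderOf_dvd_card' 19 h19NQ
  have hxo : orderOf (x : G) = 19 := by rw [orderOf_coe, hx]
  obtain ⟨P', hP'⟩ := (IsPGroup.of_card (n := 1)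
    (by rw [Nat.card_zpowers, hxo, pow_one]) : IsPGroup 19 (zpowers (x : G))).exists_le_sylow
  have hP'eq : zpowers (x : G) = P' := eq_of_le_of_card_ge hP' (by
    rw [Nat.card_zpowers, hxo, H30.card_sylow_subgroup P' (a := 1)
      (by rw [pow_one]; exact hG) h19m, pow_one])
  -- the automorphism induced on `Q'` is trivial
  have hcent : Q' ≤ normalizer ((P' : Subgroup G) : Set G) := by
    let τ : Equiv.Perm Q' := (normalizerMonoidHom Q' x).toEquiv
    have hτ : τ ^ 19 = 1 := by
      have h1 : normalizerMonoidHom Q' x ^ 19 = 1 := by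
        rw [← map_pow, show x ^ 19 = 1 by rw [← hx, pow_orderOf_eq_one], map_one]
      have h2 := congrArg (MulAut.toPerm Q') h1
      rwa [map_pow, map_one] at h2
    have hτ1 : τ = 1 := by
      let _ : Fintype Q' := Fintype.ofFinite _
      have hd : orderOf τ ∣ 19 := orderOf_dvd_of_pow_eq_one hτ
      rcases (Nat.dvd_prime (by norm_num : Nat.Prime 19)).mp hd with h | h
      · exact orderOf_eq_one_iff.mp h
      · exfalso
        have h2 : 19 ∣ (Nat.card Q').factorial := by
          have := orderOf_dvd_natCard τ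
          rwa [h, Nat.card_perm] at this
        exact absurd ((Nat.Prime.dvd_factorial (by norm_num : Nat.Prime 19)).mp h2) (by omega)
    refine le_trans (fun y hy => ?_) (centralizer_le_normalizer _)
    rw [← hP'eq, zpowers_eq_closure, centralizer_closure, mem_centralizer_singleton_iff]
    have h1 := congrArg (fun σ : Equiv.Perm Q' => ((σ ⟨y, hy⟩ : Q') : G)) hτ1
    simp only [τ, MulEquiv.toEquiv_eq_coe, EquivLike.coe_coe, Equiv.Perm.coe_one, id_eq,
      normalizerMonoidHom_apply_apply_coe] at h1
    exact (mul_inv_eq_iff_eq_mul.mp h1).symm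
  have h1 : q ^ m.factorization q * H.index ∣ 19 * m := by
    have h2 : Nat.card (normalizer ((P' : Subgroup G) : Set G)) = Nat.card H := by
      have e1 := H30.card_sylow_mul_normalizer 19 P'
      have e2 := H30.card_sylow_mul_normalizer 19 P
      exact Nat.eq_of_mul_eq_mul_left Nat.card_pos (e1.trans e2.symm)
    rw [← hG, ← H.card_mul_index, ← hQ'card]
    exact Nat.mul_dvd_mul_right (h2 ▸ card_dvd_of_le hcent) _
  have h2 : q ^ (m.factorization q + 1) ∣ 19 * m :=
    (by rw [pow_succ]; exact Nat.mul_dvd_mul_left _ hqd : _ ∣ q ^ m.factorization q * H.index).trans h1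
  exact Nat.pow_succ_factorization_not_dvd hm0.ne' hq
    (((Nat.coprime_primes hq Fact.out).mpr hq19).pow_left _ |>.dvd_of_dvd_mul_left h2)

/-- Orders properly dividing 175560. -/
theorem card_sylow_eq_one : ∀ (m : ℕ) (G : Type u) [Group G] [Finite G],
    Nat.card G = 19 * m → m ∣ 9240 → m ≠ 9240 → Nat.card (Sylow 19 G) = 1 := by
  intro m
  induction m using Nat.strong_induction_on with
  | _ m ih =>
    intro G _ _ hG hm hne
    have : Fact (Nat.Prime 19) := ⟨by norm_num⟩
    rcases eq_or_ne m 1 with rfl | hm1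
    · exact Nat.dvd_one.mp (H30.card_sylow_dvd (a := 1) (m := 1)
        (by rw [pow_one]; exact hG) (by norm_num))
    · refine card_sylow_eq_one_of_not_simple hm hG (not_simple hm hne hm1 hG) ?_
      intro m' hm' H _ _ hH hm'd
      exact ih m' hm' H hH hm'd (fun h => by
        have := Nat.le_of_dvd (by norm_num) hm; omega)

end Cfsg.Agent.H80.J1Order
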